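import Mathlib
import Cfsg.Agent.Lib.Helper74.JordanB
import Cfsg.Agent.Lib.Helper95.BRA.Defs

/-!
# BRA (S4484) package [Bridge]: from a power-sum decomposition of the traces to the spectral
projections.
-/

set_option autoImplicit false

open scoped Matrix ComplexConjugate

namespace Cfsg.Agent.Lib.Helper24.BRA

open Cfsg Cfsg.Agent.Lib.Helper74.Jordan Cfsg.Agent.Lib.Helper95.BRA

universe u

/-- The trace of the spectral projection counts the multiplicities of the matching roots. -/
lemma trace_proj_eq_count {G : Type u} [Group G] [Fintype G] {n : ℕ}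
    (U : G →* Matrix (Fin n) (Fin n) ℂ) (p : ℕ) (m : ℕ → ℕ) (w : ℕ → ℂ) (k : G)
    (hw : ∀ i < p, w i ^ Nat.card G = 1)
    (hdec : ∀ l : ℕ, (U (k ^ l)).trace = ∑ i ∈ Finset.range p, (m i : ℂ) * w i ^ l)
    (j : ℕ) :
    (proj (U k) (Nat.card G) j).trace
      = ((∑ i ∈ Finset.range p, if w i = ev (Nat.card G) j then m i else 0 : ℕ) : ℂ) := by
  classical
  have hN : Nat.card G ≠ 0 := card_ne_zero'
  have hNC : (Nat.card G : ℂ) ≠ 0 := by exact_mod_cast hN
  rw [trace_proj]
  have h1 : ∀ l ∈ Finset.range (Nat.card G),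
      ((ev (Nat.card G) j)⁻¹) ^ l * (U (k ^ l)).trace
        = ∑ i ∈ Finset.range p, (m i : ℂ) * ((ev (Nat.card G) j)⁻¹ * w i) ^ l := by
    intro l _
    rw [hdec, Finset.mul_sum]
    refine Finset.sum_congr rfl fun t _ => ?_
    rw [mul_pow]; ring
  rw [Finset.sum_congr rfl h1, Finset.sum_comm]
  have h2 : ∀ i ∈ Finset.range p,
      ∑ l ∈ Finset.range (Nat.card G), (m i : ℂ) * ((ev (Nat.card G) j)⁻¹ * w i) ^ l
        = (Nat.card G : ℂ) * ((if w i = ev (Nat.card G) j then m i else 0 : ℕ) : ℂ) := by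
    intro i hi
    rw [← Finset.mul_sum]
    have hwN : ((ev (Nat.card G) j)⁻¹ * w i) ^ Nat.card G = 1 := by
      rw [mul_pow, inv_pow, ev_pow hN, inv_one, one_mul, hw i (Finset.mem_range.mp hi)]
    rw [geom_sum_root hN _ hwN]
    have hiff : (ev (Nat.card G) j)⁻¹ * w i = 1 ↔ w i = ev (Nat.card G) j := by
      constructor
      · intro h1
        have := congrArg (fun z => ev (Nat.card G) j * z) h1
        simp only [mul_one] at this
        rw [← mul_assoc, mul_inv_cancel₀ (ev_ne_zero hN j), one_mul] at this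
        exact this
      · intro h1
        rw [h1, inv_mul_cancel₀ (ev_ne_zero hN j)]
    by_cases hc : w i = ev (Nat.card G) j
    · rw [if_pos (hiff.mpr hc), if_pos hc]; ring
    · rw [if_neg (fun h => hc (hiff.mp h)), if_neg hc]; simp
  rw [Finset.sum_congr rfl h2, ← Finset.mul_sum, ← mul_assoc, inv_mul_cancel₀ hNC, one_mul]
  push_cast
  rfl

/-- **[Bridge]** -/
theorem pkgBridge : Cfsg.Agent.Lib.Helper95.BRA.PkgBridge.{u} := by
  intro G _ _ n U hUu p m w k hw hdec
  classical
  haveI : Fintype G := Fintype.ofFinite G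
  have hN : Nat.card G ≠ 0 := card_ne_zero'
  have htr := trace_proj_eq_count U p m w k hw hdec
  constructor
  · intro j hj hne
    have hpos := trace_proj_pos U hUu k hj hne
    rw [htr j] at hpos
    have hpos' : (∑ i ∈ Finset.range p, if w i = ev (Nat.card G) j then m i else 0) ≠ 0 := by
      intro h0
      apply hpos
      rw [h0]; simp
    obtain ⟨i, hi, hine⟩ := Finset.exists_ne_zero_of_sum_ne_zero hpos'
    refine ⟨i, Finset.mem_range.mp hi, ?_, ?_⟩
    · intro h0
      apply hine
      rw [h0]; simp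
    · by_contra hc
      apply hine
      rw [if_neg hc]
  · intro i hi hmi
    obtain ⟨j, hj, hwj⟩ := exists_ev hN (w i) (hw i hi)
    refine ⟨j, hj, ?_, hwj.symm⟩
    intro h0
    have h1 := htr j
    rw [h0, Matrix.trace_zero] at h1
    have h2 : (∑ i ∈ Finset.range p, if w i = ev (Nat.card G) j then m i else 0) = 0 := by
      exact_mod_cast h1.symm
    have h3 := (Finset.sum_eq_zero_iff.mp h2) i (Finset.mem_range.mpr hi)
    rw [if_pos hwj] at h3
    exact hmi h3

end Cfsg.Agent.Lib.Helper24.BRA
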